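import Cfsg.Agent.H495.HT.Ln
import Cfsg.Agent.H495.HT.B0
import Cfsg.Agent.H113.Two.SplitGen

/-!
# S4933, `³D₄(q)`, `3 ∣ q + 1`, box [C]: the cuspidal character of `GL₂(q)` (helper436)
-/

set_option autoImplicit false

open scoped LinearAlgebra.Projectivization MatrixGroups
open Cfsg

namespace Cfsg.Agent.H436.HT

open Cfsg.Agent.H495.HT

universe u

variable {F : Type u} [Field F]

/-- the fixed points of a nontrivial transvection -/
theorem fixed_transvection {g : GL (Fin 2) F} {t : F} (hg : (g : Matrix (Fin 2) (Fin 2) F) = !![1, t; 0, 1])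
    (ht : t ≠ 0) : Nat.card (MulAction.fixedBy (ℙ F (Fin 2 → F)) g) = 1 := by
  rw [Nat.card_eq_one_iff_unique]
  have he : (![1, 0] : Fin 2 → F) ≠ 0 := fun h => one_ne_zero (congrFun h 0)
  have key : ∀ x : ℙ F (Fin 2 → F), g • x = x → x = Projectivization.mk F ![1, 0] he := by
    intro x
    induction x using Projectivization.ind with
    | _ v hv =>
      intro h
      rw [Projectivization.smul_mk, Projectivization.mk_eq_mk_iff'] at h
      obtain ⟨a, ha⟩ := h
      have hgv : g • v = (g : Matrix (Fin 2) (Fin 2) F).mulVec v := rfl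
      rw [hgv, hg] at ha
      have h0 : a * v 0 = 1 * v 0 + t * v 1 := by
        have := congrFun ha 0
        simpa [Matrix.mulVec, dotProduct, Fin.sum_univ_two] using this
      have h1 : a * v 1 = 0 * v 0 + 1 * v 1 := by
        have := congrFun ha 1
        simpa [Matrix.mulVec, dotProduct, Fin.sum_univ_two] using this
      have hy : v 1 = 0 := by
        have h2 : (a - 1) * v 1 = 0 := by linear_combination h1
        rcases mul_eq_zero.1 h2 with h2 | h2
        · have h3 : t * v 1 = 0 := by linear_combination v 0 * h2 - h0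
          exact (mul_eq_zero.1 h3).resolve_left ht
        · exact h2
      rw [Projectivization.mk_eq_mk_iff']
      refine ⟨v 0, ?_⟩
      funext i
      fin_cases i
      · simp
      · simp [hy]
  refine ⟨⟨fun x y => Subtype.ext ((key _ x.2).trans (key _ y.2).symm)⟩, ⟨⟨Projectivization.mk F ![1, 0] he, ?_⟩⟩⟩
  rw [MulAction.mem_fixedBy, Projectivization.smul_mk, Projectivization.mk_eq_mk_iff']
  refine ⟨1, ?_⟩
  have hgv : g • (![1, 0] : Fin 2 → F) = (g : Matrix (Fin 2) (Fin 2) F).mulVec ![1, 0] := rfl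
  rw [hgv, hg]
  funext i
  fin_cases i <;> simp [Matrix.mulVec, dotProduct, Fin.sum_univ_two]

/-- the unitriangular subgroup -/
def UT (F : Type u) [Field F] : Subgroup (GL (Fin 2) F) where
  carrier := {g | ∃ t : F, (g : Matrix (Fin 2) (Fin 2) F) = !![1, t; 0, 1]}
  one_mem' := ⟨0, by
    rw [Units.val_one]
    ext i j
    fin_cases i <;> fin_cases j <;> simp⟩
  mul_mem' := by
    rintro g h ⟨s, hs⟩ ⟨t, ht⟩
    refine ⟨t + s, ?_⟩
    rw [Units.val_mul, hs, ht]
    ext i j
    fin_cases i <;> fin_cases j <;> simp [Matrix.mul_apply, Fin.sum_univ_two]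
  inv_mem' := by
    rintro g ⟨s, hs⟩
    refine ⟨-s, ?_⟩
    have h1 : (g : Matrix (Fin 2) (Fin 2) F) * !![1, -s; 0, 1] = 1 := by
      rw [hs]
      ext i j
      fin_cases i <;> fin_cases j <;> simp [Matrix.mul_apply, Fin.sum_univ_two]
    calc ((g⁻¹ : GL (Fin 2) F) : Matrix (Fin 2) (Fin 2) F) =
        ((g⁻¹ : GL (Fin 2) F) : Matrix (Fin 2) (Fin 2) F) * ((g : Matrix (Fin 2) (Fin 2) F) * !![1, -s; 0, 1]) := by
          rw [h1, Matrix.mul_one]
      _ = _ := by rw [← Matrix.mul_assoc, ← Units.val_mul, inv_mul_cancel, Units.val_one, Matrix.one_mul]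

/-- **[C]** -/
theorem exists_psi (F : Type u) [Field F] [Fintype F] (hq : 3 ∣ Nat.card F + 1) {M : Ideal AlgInt}
    (hM : IsPModular 3 M) : ∃ ψ : IrrCharacter (GL (Fin 2) F), ψ ∈ principalBlock M (GL (Fin 2) F) ∧
      (ψ : GL (Fin 2) F → ℂ) 1 = (Nat.card F : ℂ) - 1 ∧
      (∀ (z : Fˣ) (g : GL (Fin 2) F), (ψ : GL (Fin 2) F → ℂ) (Matrix.GeneralLinearGroup.scalar (Fin 2) z * g) =
        (ψ : GL (Fin 2) F → ℂ) g) ∧
      ∀ U : F → GL (Fin 2) F, (∀ t, (U t : Matrix (Fin 2) (Fin 2) F) = !![1, t; 0, 1]) →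
        ∀ g : GL (Fin 2) F, ∑ t : F, (ψ : GL (Fin 2) F → ℂ) (U t * g) = 0 := by
  classical
  have h3 : Fact (Nat.Prime 3) := ⟨Nat.prime_three⟩
  obtain ⟨ρ, h1, h2, h3', h4, -⟩ := exists_rho F (by omega)
  have hf : ∀ g : GL (Fin 2) F, ¬ 3 ∣ orderOf g →
      (ρ : GL (Fin 2) F → ℂ) g = (Nat.card (MulAction.fixedBy (ℙ F (Fin 2 → F)) g) : ℂ) - 2 := fun g hg => by
    rw [h3' g hg, ln_eq]
  have hcard : Nat.card (ℙ F (Fin 2 → F)) = Nat.card F + 1 := Projectivization.card_of_finrank_two _ _ (by simp)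
  have : MulAction.IsPretransitive (GL (Fin 2) F) (ℙ F (Fin 2 → F)) := ⟨fun x y => by
    obtain ⟨s, hs⟩ := MulAction.exists_smul_eq (Matrix.SpecialLinearGroup (Fin 2) F) x y
    refine ⟨(s : GL (Fin 2) F), ?_⟩
    rw [← hs]
    induction x using Projectivization.ind with
    | _ v hv => rfl⟩
  refine ⟨ρ, mem_principal (Ω := ℙ F (Fin 2 → F)) (by norm_num) (by rw [hcard]; exact hq) hM ρ hf, h1, h2, ?_⟩
  intro U hU g
  have hUT : ∀ t, U t ∈ UT F := fun t => ⟨t, hU t⟩
  let e : F ≃ UT F := Equiv.ofBijective (fun t => ⟨U t, hUT t⟩) (by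
    constructor
    · intro s t hst
      have e1 : U s = U t := congrArg Subtype.val hst
      have e2 := congrArg (fun x : GL (Fin 2) F => (x : Matrix (Fin 2) (Fin 2) F) 0 1) e1
      simp only [hU] at e2
      simpa using e2
    · rintro ⟨x, t, ht⟩
      exact ⟨t, Subtype.ext (Units.ext ((hU t).trans ht.symm))⟩)
  have : Fintype (UT F) := Fintype.ofEquiv F e
  have hsum : ∑ u : UT F, (ρ : GL (Fin 2) F → ℂ) u = 0 := by
    rw [← Equiv.sum_comp e]
    have hv : ∀ t : F, (ρ : GL (Fin 2) F → ℂ) (e t) = (if t = 0 then (Nat.card F : ℂ) else 0) - 1 := by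
      intro t
      show (ρ : GL (Fin 2) F → ℂ) (U t) = _
      by_cases ht : t = 0
      · have e1 : U t = 1 := Units.ext (by
          rw [hU, ht, Units.val_one]
          ext i j
          fin_cases i <;> fin_cases j <;> simp)
        rw [e1, h1, if_pos ht]
      · have e1 : ln (U t) = 1 := by rw [ln_eq]; exact fixed_transvection (hU t) ht
        rw [h4 _ (by rw [e1]; norm_num), e1, if_neg ht]
        norm_num
    rw [Finset.sum_congr rfl fun t _ => hv t, Finset.sum_sub_distrib, Finset.sum_ite_eq' Finset.univ (0 : F),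
      if_pos (Finset.mem_univ _), Finset.sum_const, Finset.card_univ, ← Nat.card_eq_fintype_card, nsmul_eq_mul, mul_one,
      sub_self]
  have hall := Cfsg.Agent.H113.Two.SplitGen.sum_mul_eq_zero (Cfsg.Agent.Characters.Core.isIrr_isCharacter ρ.2) hsum g
  rw [← hall, ← Equiv.sum_comp e]
  rfl

end Cfsg.Agent.H436.HT
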