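import Cfsg.Agent.H734.HT.UDefs
import Cfsg.Agent.H681.IP.Row

/-!
# S4933, `PSU_n(q)`, `p ∣ q + 1`: monomial `p`-subgroups (helper436)

* `pairs_psu` : two commuting nonabelian pairs in a `p`-subgroup, `2 p + 1 ≤ n`;
* `row_psu_big` : `Row p (PSU n F q)`, `p ^ 2 < n` (the second derived subgroup is not trivial).
-/

set_option autoImplicit false
set_option linter.unusedSectionVars false

namespace Cfsg.Agent.H436.HT

open Cfsg Matrix Cfsg.Agent.LieClassical.HermSiegel Cfsg.Agent.H734.HT Cfsg.Agent.H316.HT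
open Cfsg.Agent.ClassicalGeometry.UnitAutBasic (pr pr_surjective exists_scalar_of_mem_center)
open scoped commutatorElement

/-! ### permutations -/

/-- a permutation of `p`-power order, `p` odd, is even -/
theorem sign_of_isPGroup {p : ℕ} (hp : p.Prime) (h2 : p ≠ 2) {α : Type*} [Fintype α] [DecidableEq α]
    {S : Subgroup (Equiv.Perm α)} (hS : IsPGroup p S) {σ : Equiv.Perm α} (hσ : σ ∈ S) : Equiv.Perm.sign σ = 1 := by
  obtain ⟨k, hk⟩ := hS ⟨σ, hσ⟩
  have h1 : σ ^ p ^ k = 1 := congrArg Subtype.val hk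
  have h3 : Equiv.Perm.sign σ ^ p ^ k = 1 := by rw [← map_pow, h1, map_one]
  rcases Int.units_eq_one_or (Equiv.Perm.sign σ) with h | h
  · exact h
  · rw [h, ((hp.odd_of_ne_two h2).pow).neg_one_pow] at h3
    exact absurd h3 (by decide)

section blk

variable {p : ℕ} {I : Type*}

/-- the permutations `(i, j) ↦ (π i, j + b i)` of `I × ZMod p` -/
def BW (R : Subgroup (Equiv.Perm I)) : Subgroup (Equiv.Perm (I × ZMod p)) where
  carrier := {f | ∃ π ∈ R, ∃ b : I → ZMod p, ∀ x, f x = (π x.1, x.2 + b x.1)}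
  one_mem' := ⟨1, one_mem R, 0, fun x => by simp⟩
  mul_mem' := by
    rintro f g ⟨π, hπ, b, hf⟩ ⟨π', hπ', b', hg⟩
    refine ⟨π * π', mul_mem hπ hπ', fun i => b' i + b (π' i), fun x => ?_⟩
    rw [Equiv.Perm.mul_apply, hg, hf, Equiv.Perm.mul_apply, add_assoc]
  inv_mem' := by
    rintro f ⟨π, hπ, b, hf⟩
    refine ⟨π⁻¹, inv_mem hπ, fun i => - b (π⁻¹ i), fun x => ?_⟩
    rw [Equiv.Perm.inv_eq_iff_eq, hf]
    simp

theorem BW_pow {f : Equiv.Perm (I × ZMod p)} {π : Equiv.Perm I} {b : I → ZMod p}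
    (hf : ∀ x, f x = (π x.1, x.2 + b x.1)) (m : ℕ) : ∃ s : I → ZMod p, ∀ x, (f ^ m) x = ((π ^ m) x.1, x.2 + s x.1) := by
  induction m with
  | zero => exact ⟨0, fun x => by simp⟩
  | succ m ih =>
    obtain ⟨s, hs⟩ := ih
    refine ⟨fun i => b i + s (π i), fun x => ?_⟩
    rw [pow_succ, Equiv.Perm.mul_apply, hf, hs, pow_succ, Equiv.Perm.mul_apply, add_assoc]

theorem isPGroup_BW {R : Subgroup (Equiv.Perm I)} (hR : IsPGroup p R) : IsPGroup p (BW (p := p) R) := by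
  rintro ⟨f, π, hπ, b, hf⟩
  obtain ⟨k, hk⟩ := hR ⟨π, hπ⟩
  have hk' : π ^ p ^ k = 1 := congrArg Subtype.val hk
  obtain ⟨s, hs⟩ := BW_pow hf (p ^ k)
  rw [hk'] at hs
  refine ⟨k + 1, Subtype.ext ?_⟩
  show f ^ p ^ (k + 1) = 1
  rw [pow_succ, pow_mul]
  have h1 : ∀ m : ℕ, ∀ x, ((f ^ p ^ k) ^ m) x = (x.1, x.2 + m * s x.1) := by
    intro m
    induction m with
    | zero => intro x; simp
    | succ m ih =>
      intro x
      rw [pow_succ, Equiv.Perm.mul_apply, hs, ih]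
      simp only [Equiv.Perm.coe_one, id_eq, Nat.cast_add, Nat.cast_one]
      ext
      · rfl
      · simp only; ring
  refine Equiv.ext fun x => ?_
  rw [h1 p x]
  simp

end blk

/-! ### the embedding -/

section emb

variable {p n : ℕ} [hp : Fact p.Prime] {I : Type*}

/-- the blocks in `Fin n` -/
def io (v : I → ℕ) (hv : Function.Injective v) (hn : ∀ i, v i * p + p < n) : I × ZMod p ↪ Fin n where
  toFun x := ⟨v x.1 * p + x.2.val, lt_of_le_of_lt (Nat.add_le_add_left (ZMod.val_lt x.2).le _) (hn x.1)⟩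
  inj' := by
    rintro ⟨i, j⟩ ⟨i', j'⟩ h
    have h1 : v i * p + j.val = v i' * p + j'.val := congrArg Fin.val h
    have hp0 : 0 < p := hp.out.pos
    have h2 := congrArg (· / p) h1
    have h3 := congrArg (· % p) h1
    simp only [Nat.add_comm _ (ZMod.val _), Nat.add_mul_div_right _ _ hp0, Nat.div_eq_of_lt (ZMod.val_lt _), zero_add,
      Nat.add_mul_mod_self_right, Nat.mod_eq_of_lt (ZMod.val_lt _)] at h2 h3
    exact Prod.ext (hv h2) (ZMod.val_injective p h3)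

/-- the last coordinate is outside of the blocks -/
theorem last_notMem {v : I → ℕ} {hv : Function.Injective v} {hn : ∀ i, v i * p + p < n} (h0 : 0 < n) :
    (⟨n - 1, by omega⟩ : Fin n) ∉ Set.range (io v hv hn) := by
  rintro ⟨⟨i, j⟩, h⟩
  have h1 : v i * p + j.val = n - 1 := congrArg Fin.val h
  have h2 := hn i
  have h3 := ZMod.val_lt j
  omega

end emb

/-! ### the monomial subgroup -/

section mono

variable {F : Type} [Field F] {q n p : ℕ} [hp : Fact p.Prime]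

theorem ne_zero_of_pow {c : F} (h : c ^ p = 1) : c ≠ 0 := by
  rintro rfl
  rw [zero_pow hp.out.ne_zero] at h
  exact zero_ne_one h

theorem norm_of_pow (hpq : p ∣ q + 1) {c : F} (h : c ^ p = 1) : c * c ^ q = 1 := by
  obtain ⟨m, hm⟩ := hpq
  rw [← pow_succ', hm, pow_mul, h, one_pow]

variable (p) in
/-- the monomial elements of `SU` with entries of order `p` and permutation in `S` -/
def XS (n : ℕ) (F : Type) [Field F] (q : ℕ) (S : Subgroup (Equiv.Perm (Fin n))) : Subgroup (SU n F q) where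
  carrier := {A | ∃ σ ∈ S, ∃ d : Fin n → F, (∀ i, d i ^ p = 1) ∧ mat A = mm σ d}
  one_mem' := ⟨1, one_mem S, fun _ => 1, fun _ => one_pow _, by rw [mat_one, mm_one]⟩
  mul_mem' := by
    rintro A B ⟨σ, hσ, d, hd, hA⟩ ⟨τ, hτ, e, he, hB⟩
    refine ⟨σ * τ, mul_mem hσ hτ, fun j => d (τ j) * e j, fun i => by rw [mul_pow, hd, he, one_mul], ?_⟩
    rw [mat_mul, hA, hB, mm_mul]
  inv_mem' := by
    rintro A ⟨σ, hσ, d, hd, hA⟩
    refine ⟨σ⁻¹, inv_mem hσ, fun j => (d (σ⁻¹ j))⁻¹, fun i => by rw [inv_pow, hd, inv_one], ?_⟩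
    have h1 : mat A⁻¹ * mat A = 1 := by rw [← mat_mul, inv_mul_cancel, mat_one]
    calc mat A⁻¹ = mat A⁻¹ * (mat A * mm σ⁻¹ (fun j => (d (σ⁻¹ j))⁻¹)) := by
          rw [hA, mm_inv σ d fun i => ne_zero_of_pow (hd i), Matrix.mul_one]
      _ = _ := by rw [← Matrix.mul_assoc, h1, Matrix.one_mul]

theorem XS_pow {A : SU n F q} {σ : Equiv.Perm (Fin n)} {d : Fin n → F} (hd : ∀ i, d i ^ p = 1)
    (hA : mat A = mm σ d) (m : ℕ) : ∃ e : Fin n → F, (∀ i, e i ^ p = 1) ∧ mat (A ^ m) = mm (σ ^ m) e := by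
  induction m with
  | zero => exact ⟨fun _ => 1, fun _ => one_pow _, by rw [pow_zero, pow_zero, mat_one, mm_one]⟩
  | succ m ih =>
    obtain ⟨e, he, h⟩ := ih
    refine ⟨fun j => e (σ j) * d j, fun i => by rw [mul_pow, hd, he, one_mul], ?_⟩
    rw [pow_succ, mat_mul, h, hA, mm_mul, pow_succ]

theorem mat_pow (A : SU n F q) (m : ℕ) : mat (A ^ m) = mat A ^ m := by
  induction m with
  | zero => rw [pow_zero, pow_zero, mat_one]
  | succ m ih => rw [pow_succ, mat_mul, ih, pow_succ]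

theorem isPGroup_XS {S : Subgroup (Equiv.Perm (Fin n))} (hS : IsPGroup p S) : IsPGroup p (XS p n F q S) := by
  rintro ⟨A, σ, hσ, d, hd, hA⟩
  obtain ⟨k, hk⟩ := hS ⟨σ, hσ⟩
  have hk' : σ ^ p ^ k = 1 := congrArg Subtype.val hk
  obtain ⟨e, he, h⟩ := XS_pow hd hA (p ^ k)
  rw [hk', mm_diag] at h
  refine ⟨k + 1, Subtype.ext ?_⟩
  show A ^ p ^ (k + 1) = 1
  rw [pow_succ, pow_mul]
  apply mat_injective
  rw [mat_pow, h, mat_one, diagonal_pow]
  have : e ^ p = fun _ => 1 := funext he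
  rw [this, diagonal_one]

/-- the diagonal elements -/
def dg (hpq : p ∣ q + 1) (d : Fin n → F) (hd : ∀ i, d i ^ p = 1) (h1 : ∏ i, d i = 1) : SU n F q :=
  msu 1 d (fun i => norm_of_pow hpq (hd i)) (by rw [Equiv.Perm.sign_one, h1]; simp)

theorem mat_dg (hpq : p ∣ q + 1) (d : Fin n → F) (hd : ∀ i, d i ^ p = 1) (h1 : ∏ i, d i = 1) :
    mat (dg (q := q) hpq d hd h1) = mm 1 d := rfl

theorem dg_mem (hpq : p ∣ q + 1) {d : Fin n → F} (hd : ∀ i, d i ^ p = 1) (h1 : ∏ i, d i = 1)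
    (S : Subgroup (Equiv.Perm (Fin n))) : dg (q := q) hpq d hd h1 ∈ XS p n F q S :=
  ⟨1, one_mem S, d, hd, rfl⟩

/-- the even permutations -/
def pm (h2 : p ≠ 2) {S : Subgroup (Equiv.Perm (Fin n))} (hS : IsPGroup p S) : S →* SU n F q where
  toFun σ := msu σ.1 (fun _ => 1) (fun _ => by rw [one_pow, one_mul])
    (by rw [sign_of_isPGroup hp.out h2 hS σ.2]; simp)
  map_one' := mat_injective (by rw [mat_msu, mat_one]; exact mm_one)
  map_mul' σ τ := mat_injective (by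
    rw [mat_mul, mat_msu, mat_msu, mat_msu, mm_mul]
    congr 1
    funext j
    rw [one_mul])

theorem mat_pm (h2 : p ≠ 2) {S : Subgroup (Equiv.Perm (Fin n))} (hS : IsPGroup p S) (σ : S) :
    mat (pm (F := F) (q := q) h2 hS σ) = mm σ.1 fun _ => 1 := rfl

theorem pm_mem (h2 : p ≠ 2) {S : Subgroup (Equiv.Perm (Fin n))} (hS : IsPGroup p S) (σ : S) :
    pm (F := F) (q := q) h2 hS σ ∈ XS p n F q S := ⟨σ.1, σ.2, fun _ => 1, fun _ => one_pow _, rfl⟩

/-- commuting elements -/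
theorem dg_pm (hpq : p ∣ q + 1) {d : Fin n → F} (hd : ∀ i, d i ^ p = 1) (h1 : ∏ i, d i = 1) (h2 : p ≠ 2)
    {S : Subgroup (Equiv.Perm (Fin n))} (hS : IsPGroup p S) {σ : S} (h : ∀ i, d (σ.1 i) = d i) :
    Commute (dg (q := q) hpq d hd h1) (pm h2 hS σ) := by
  apply mat_injective
  rw [mat_mul, mat_mul, mat_dg, mat_pm, mm_mul, mm_mul, one_mul, mul_one]
  congr 1
  funext j
  rw [h, mul_one, one_mul]

theorem dg_dg (hpq : p ∣ q + 1) {d e : Fin n → F} (hd : ∀ i, d i ^ p = 1) (h1 : ∏ i, d i = 1)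
    (he : ∀ i, e i ^ p = 1) (h1' : ∏ i, e i = 1) :
    Commute (dg (q := q) hpq d hd h1) (dg hpq e he h1') := by
  apply mat_injective
  rw [mat_mul, mat_mul, mat_dg, mat_dg, mm_mul, mm_mul]
  congr 1
  funext j
  rw [mul_comm]
  rfl

/-- **Noncommuting elements of `PSU`.** -/
theorem not_comm [Fintype F] (hF : Fintype.card F = q ^ 2) (hn : 3 ≤ n) (hpq : p ∣ q + 1) {d : Fin n → F}
    (hd : ∀ i, d i ^ p = 1) (h1 : ∏ i, d i = 1) (h2 : p ≠ 2)
    {S : Subgroup (Equiv.Perm (Fin n))} (hS : IsPGroup p S) {σ : S} {j₀ j₁ : Fin n} (h0 : σ.1 j₀ = j₀)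
    (hne : d j₁ ≠ d (σ.1 j₁)) :
    pr n F q (dg hpq d hd h1) * pr n F q (pm h2 hS σ) ≠ pr n F q (pm h2 hS σ) * pr n F q (dg hpq d hd h1) := by
  intro h
  rw [← map_mul, ← map_mul] at h
  obtain ⟨c, -, hc⟩ := ClassicalGeometry.UnitAutBasic.exists_scalar_of_pr_eq hF hn h
  have key : ∀ j, d j = c * d (σ.1 j) := by
    intro j
    have h3 := congrFun (hc (Pi.single j 1)) (σ.1 j)
    rw [act_def, act_def, mat_mul, mat_mul, mat_dg, mat_pm, mm_mul, mm_mul, Pi.smul_apply, smul_eq_mul,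
      mul_one, one_mul, mm_mulVec, mm_mulVec, Pi.single_eq_same, mul_one, mul_one, mul_one, one_mul] at h3
    exact h3
  have h3 := key j₀
  rw [h0] at h3
  have h4 : c = 1 := by
    have h5 := ne_zero_of_pow (hd j₀)
    apply mul_right_cancel₀ h5
    rw [← h3, one_mul]
  apply hne
  rw [key j₁, h4, one_mul]

/-- the diagonal with two entries -/
def dd (c : F) (a b : Fin n) : Fin n → F := Pi.mulSingle a c * Pi.mulSingle b c⁻¹

theorem dd_prod {c : F} (hc : c ≠ 0) (a b : Fin n) : ∏ i, dd c a b i = 1 := by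
  unfold dd
  simp only [Pi.mul_apply]
  rw [Finset.prod_mul_distrib, Finset.prod_pi_mulSingle', Finset.prod_pi_mulSingle', if_pos (Finset.mem_univ _),
    if_pos (Finset.mem_univ _), mul_inv_cancel₀ hc]

theorem dd_pow {c : F} (hc : c ^ p = 1) (a b : Fin n) (i : Fin n) : dd c a b i ^ p = 1 := by
  unfold dd
  rw [Pi.mul_apply, mul_pow, Pi.mulSingle_apply, Pi.mulSingle_apply]
  split_ifs <;> simp [hc]

theorem dd_of_ne {c : F} {a b i : Fin n} (h1 : i ≠ a) (h2 : i ≠ b) : dd c a b i = 1 := by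
  unfold dd
  rw [Pi.mul_apply, Pi.mulSingle_eq_of_ne h1, Pi.mulSingle_eq_of_ne h2, one_mul]

theorem dd_left {c : F} {a b : Fin n} (h : a ≠ b) : dd c a b a = c := by
  unfold dd
  rw [Pi.mul_apply, Pi.mulSingle_eq_same, Pi.mulSingle_eq_of_ne h, mul_one]

theorem exists_root [Fintype F] (hF : Fintype.card F = q ^ 2) (hpq : p ∣ q + 1) :
    ∃ c : F, c ^ p = 1 ∧ c ≠ 1 := by
  have h1 : p ∣ Nat.card Fˣ := by
    rw [Nat.card_units, Nat.card_eq_fintype_card, hF]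
    have : q ^ 2 - 1 = (q + 1) * (q - 1) := by
      have := Nat.sq_sub_sq q 1
      rwa [one_pow] at this
    rw [this]
    exact hpq.mul_right _
  obtain ⟨c, hc⟩ := exists_prime_orderOf_dvd_card' p h1
  refine ⟨(c : F), ?_, ?_⟩
  · rw [← Units.val_pow_eq_pow_val, ← hc, pow_orderOf_eq_one, Units.val_one]
  · intro h
    have h3 : c = 1 := Units.ext h
    rw [h3, orderOf_one] at hc
    exact hp.out.one_lt.ne hc

end mono

/-! ### the blocks in `SU` -/

section fin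

variable {p n q : ℕ} [hp : Fact p.Prime] {F : Type} [Field F] [Fintype F] {I : Type*}

theorem via_isPGroup {α β : Type*} {ι : α ↪ β} {S : Subgroup (Equiv.Perm α)} (hS : IsPGroup p S) :
    IsPGroup p (S.map (Equiv.Perm.viaEmbeddingHom ι)) := hS.map _

/-- the cycles of the blocks -/
def cy (p : ℕ) (I : Type*) [DecidableEq I] (i₀ : I) : Equiv.Perm (I × ZMod p) where
  toFun x := (x.1, x.2 + if x.1 = i₀ then 1 else 0)
  invFun x := (x.1, x.2 - if x.1 = i₀ then 1 else 0)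
  left_inv x := by simp
  right_inv x := by simp

theorem cy_mem [DecidableEq I] (i₀ : I) (R : Subgroup (Equiv.Perm I)) : cy p I i₀ ∈ BW (p := p) R :=
  ⟨1, one_mem R, fun i => if i = i₀ then 1 else 0, fun _ => rfl⟩

/-- the permutation of the blocks -/
def bl (p : ℕ) {I : Type*} (π : Equiv.Perm I) : Equiv.Perm (I × ZMod p) := π.prodCongr (Equiv.refl _)

theorem bl_mem {π : Equiv.Perm I} {R : Subgroup (Equiv.Perm I)} (h : π ∈ R) : bl p π ∈ BW (p := p) R :=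
  ⟨π, h, fun _ => 0, fun _ => Prod.ext rfl (add_zero _).symm⟩

/-- **(U-C)** -/
theorem pairs_psu (hF : Fintype.card F = q ^ 2) (h2 : p ≠ 2) (hpq : p ∣ q + 1) (hn : 2 * p + 1 ≤ n) :
    ∃ X : Subgroup (PSU n F q), IsPGroup p X ∧ ∃ x₁ ∈ X, ∃ y₁ ∈ X, ∃ x₂ ∈ X, ∃ y₂ ∈ X, x₁ * y₁ ≠ y₁ * x₁ ∧
      x₂ * y₂ ≠ y₂ * x₂ ∧ Commute x₁ x₂ ∧ Commute x₁ y₂ ∧ Commute y₁ x₂ ∧ Commute y₁ y₂ := by
  classical
  have hp2 := hp.out.two_le
  obtain ⟨c, hc, hc1⟩ := exists_root (F := F) (p := p) hF hpq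
  have hc0 := ne_zero_of_pow hc
  have hv : ∀ i : Fin 2, i.val * p + p < n := by
    intro i
    have := i.2
    have h3 : i.val * p ≤ 1 * p := Nat.mul_le_mul_right p (by omega)
    omega
  let ι := io (p := p) (n := n) (fun i : Fin 2 => i.val) Fin.val_injective hv
  let la : Fin n := ⟨n - 1, by omega⟩
  have hla : la ∉ Set.range ι := last_notMem (by omega)
  let S : Subgroup (Equiv.Perm (Fin n)) := (BW (p := p) (⊥ : Subgroup (Equiv.Perm (Fin 2)))).map
    (Equiv.Perm.viaEmbeddingHom ι)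
  have hS : IsPGroup p S := via_isPGroup (isPGroup_BW IsPGroup.of_bot)
  let s : Fin 2 → S := fun i => ⟨Equiv.Perm.viaEmbeddingHom ι (cy p (Fin 2) i), ⟨_, cy_mem i _, rfl⟩⟩
  have hs : ∀ i x, (s i).1 (ι x) = ι (cy p (Fin 2) i x) := fun i x => Equiv.Perm.viaEmbedding_apply _ _ _
  have hs' : ∀ i x, x ∉ Set.range ι → (s i).1 x = x := fun i x hx => Equiv.Perm.viaEmbedding_apply_of_notMem _ _ _ hx
  let d : Fin 2 → Fin n → F := fun i => dd c (ι (i, 0)) la
  have hd : ∀ i x, d i x ^ p = 1 := fun i => dd_pow hc _ _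
  have hd1 : ∀ i, ∏ x, d i x = 1 := fun i => dd_prod hc0 _ _
  have hne : ∀ x, ι x ≠ la := fun x h => hla ⟨x, h⟩
  have hcyne : ∀ i j : Fin 2, i ≠ j → ∀ x, d i ((s j).1 x) = d i x := by
    intro i j hij x
    by_cases hx : x ∈ Set.range ι
    · obtain ⟨⟨k, m⟩, rfl⟩ := hx
      rw [hs]
      by_cases hk : k = j
      · subst hk
        show dd c _ _ _ = dd c _ _ _
        rw [dd_of_ne, dd_of_ne]
        · exact fun h => hij (congrArg Prod.fst (ι.injective h)).symm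
        · exact hne _
        · exact fun h => hij (congrArg Prod.fst (ι.injective h)).symm
        · exact hne _
      · congr 2
        show (k, m + if k = j then 1 else 0) = (k, m)
        rw [if_neg hk, add_zero]
    · rw [hs' j x hx]
  have hnc : ∀ i, pr n F q (dg hpq (d i) (hd i) (hd1 i)) * pr n F q (pm h2 hS (s i)) ≠
      pr n F q (pm h2 hS (s i)) * pr n F q (dg hpq (d i) (hd i) (hd1 i)) := by
    intro i
    refine not_comm hF (by omega) hpq (hd i) (hd1 i) h2 hS (j₀ := la) (j₁ := ι (i, 0)) (hs' i la hla) ?_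
    rw [hs]
    show dd c (ι (i, 0)) la (ι (i, 0)) ≠ dd c (ι (i, 0)) la (ι (i, 0 + if i = i then 1 else 0))
    rw [if_pos rfl, zero_add, dd_left (hne _), dd_of_ne _ (hne _)]
    · exact hc1
    · intro h
      have h3 := congrArg Prod.snd (ι.injective h)
      exact one_ne_zero h3
  have hX : IsPGroup p ((XS p n F q S).map (pr n F q)) := (isPGroup_XS hS).map _
  refine ⟨(XS p n F q S).map (pr n F q), hX, _, ⟨_, dg_mem hpq (hd 0) (hd1 0) S, rfl⟩, _, ⟨_, pm_mem h2 hS (s 0), rfl⟩,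
    _, ⟨_, dg_mem hpq (hd 1) (hd1 1) S, rfl⟩, _, ⟨_, pm_mem h2 hS (s 1), rfl⟩, hnc 0, hnc 1, ?_, ?_, ?_, ?_⟩
  · exact (dg_dg hpq _ _ _ _).map _
  · exact (dg_pm hpq _ _ h2 hS (hcyne 0 1 (by decide))).map _
  · exact ((dg_pm hpq _ _ h2 hS (hcyne 1 0 (by decide))).map _).symm
  · have h3 : s 0 * s 1 = s 1 * s 0 := by
      apply Subtype.ext
      show Equiv.Perm.viaEmbeddingHom ι (cy p (Fin 2) 0) * Equiv.Perm.viaEmbeddingHom ι (cy p (Fin 2) 1) =
        Equiv.Perm.viaEmbeddingHom ι (cy p (Fin 2) 1) * Equiv.Perm.viaEmbeddingHom ι (cy p (Fin 2) 0)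
      rw [← map_mul, ← map_mul]
      congr 1
      refine Equiv.ext fun x => ?_
      exact congrArg (Prod.mk x.1) (add_right_comm _ _ _)
    have h4 : Commute (pm (F := F) (q := q) h2 hS (s 0)) (pm h2 hS (s 1)) := by
      show _ * _ = _ * _
      rw [← map_mul, h3, map_mul]
    exact h4.map _

/-- **(U-D)** -/
theorem row_psu_big (hF : Fintype.card F = q ^ 2) (h2 : p ≠ 2) (hpq : p ∣ q + 1) (hn : p ^ 2 < n) :
    Row p (PSU n F q) := by
  classical
  have hp2 := hp.out.two_le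
  obtain ⟨c, hc, hc1⟩ := exists_root (F := F) (p := p) hF hpq
  have hc0 := ne_zero_of_pow hc
  have hv : ∀ i : ZMod p, i.val * p + p < n := by
    intro i
    have := ZMod.val_lt i
    have h3 : (i.val + 1) * p ≤ p * p := Nat.mul_le_mul_right p (by omega)
    have h4 : p ^ 2 = p * p := sq p
    nlinarith
  let ι := io (p := p) (n := n) (fun i : ZMod p => i.val) (ZMod.val_injective p) hv
  have hn0 : 3 ≤ n := by nlinarith
  let la : Fin n := ⟨n - 1, by omega⟩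
  have hla : la ∉ Set.range ι := last_notMem (by omega)
  let R : Subgroup (Equiv.Perm (ZMod p)) := Subgroup.zpowers (Equiv.addRight (1 : ZMod p))
  have hR : IsPGroup p R := by
    have h4 : ∀ (m : ℕ) (x : ZMod p), ((Equiv.addRight (1 : ZMod p)) ^ m) x = x + m := by
      intro m
      induction m with
      | zero => intro x; simp
      | succ m ih =>
        intro x
        rw [pow_succ', Equiv.Perm.mul_apply, ih, Equiv.coe_addRight]
        push_cast
        ring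
    have h3 : (Equiv.addRight (1 : ZMod p)) ^ p = 1 := Equiv.ext fun x => by
      rw [h4, CharP.cast_eq_zero, add_zero, Equiv.Perm.one_apply]
    rintro ⟨_, k, rfl⟩
    refine ⟨1, Subtype.ext ?_⟩
    show ((Equiv.addRight (1 : ZMod p)) ^ k) ^ p ^ 1 = 1
    rw [pow_one, ← _root_.zpow_natCast, ← _root_.zpow_mul, mul_comm, _root_.zpow_mul, _root_.zpow_natCast, h3, _root_.one_zpow]
  let S : Subgroup (Equiv.Perm (Fin n)) := (BW (p := p) R).map (Equiv.Perm.viaEmbeddingHom ι)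
  have hS : IsPGroup p S := via_isPGroup (isPGroup_BW hR)
  let s : S := ⟨Equiv.Perm.viaEmbeddingHom ι (cy p (ZMod p) 0), ⟨_, cy_mem 0 _, rfl⟩⟩
  let t : S := ⟨Equiv.Perm.viaEmbeddingHom ι (bl p (Equiv.addRight 1)), ⟨_, bl_mem (Subgroup.mem_zpowers _), rfl⟩⟩
  have hfix : ∀ σ : S, σ.1 la = la := by
    rintro ⟨_, f, -, rfl⟩
    exact Equiv.Perm.viaEmbedding_apply_of_notMem _ _ _ hla
  have hne : ∀ x, ι x ≠ la := fun x h => hla ⟨x, h⟩
  have hm1 : (-1 : ZMod p) ≠ 0 := neg_ne_zero.2 one_ne_zero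
  have hbl : ∀ x : ZMod p × ZMod p, (bl p (Equiv.addRight (1 : ZMod p)))⁻¹ x = (x.1 - 1, x.2) := by
    intro x
    rw [Equiv.Perm.inv_eq_iff_eq]
    exact Prod.ext (sub_add_cancel _ _).symm rfl
  have hcy : (cy p (ZMod p) 0)⁻¹ (-1, 0) = (-1, 0) := by
    rw [Equiv.Perm.inv_eq_iff_eq]
    show _ = ((-1 : ZMod p), (0 : ZMod p) + if (-1 : ZMod p) = 0 then 1 else 0)
    rw [if_neg hm1, add_zero]
  have htinv : ∀ x, (t⁻¹).1 (ι x) = ι (x.1 - 1, x.2) := by
    intro x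
    have h3 : (t⁻¹).1 = Equiv.Perm.viaEmbeddingHom ι (bl p (Equiv.addRight (1 : ZMod p)))⁻¹ := by
      rw [map_inv]
      rfl
    rw [h3, ← hbl]
    exact Equiv.Perm.viaEmbedding_apply _ _ _
  have hst : (⁅s, t⁆ : S).1 (ι (0, 0)) = ι (0, 1) := by
    have h3 : (⁅s, t⁆ : S).1 = Equiv.Perm.viaEmbeddingHom ι ⁅cy p (ZMod p) 0, bl p (Equiv.addRight (1 : ZMod p))⁆ := by
      rw [map_commutatorElement]
      rfl
    rw [h3]
    refine (Equiv.Perm.viaEmbedding_apply _ _ _).trans (congrArg ι ?_)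
    rw [commutatorElement_def, Equiv.Perm.mul_apply, Equiv.Perm.mul_apply, Equiv.Perm.mul_apply, hbl]
    have h4 : ((0 : ZMod p) - 1, (0 : ZMod p)) = (-1, 0) := by rw [zero_sub]
    rw [h4, hcy]
    have h5 : bl p (Equiv.addRight (1 : ZMod p)) (-1, 0) = (0, 0) := Prod.ext (neg_add_cancel _) rfl
    rw [h5]
    show ((0 : ZMod p), (0 : ZMod p) + if (0 : ZMod p) = 0 then 1 else 0) = _
    rw [if_pos rfl, zero_add]
  let d : Fin n → F := dd c (ι (0, 0)) la
  have hd : ∀ x, d x ^ p = 1 := dd_pow hc _ _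
  have hd1 : ∏ x, d x = 1 := dd_prod hc0 _ _
  let e : Fin n → F := fun i => d i * (d ((t⁻¹).1 i))⁻¹
  have he : ∀ x, e x ^ p = 1 := fun x => by
    show (d x * (d ((t⁻¹).1 x))⁻¹) ^ p = 1
    rw [mul_pow, inv_pow, hd, hd, inv_one, one_mul]
  have he1 : ∏ x, e x = 1 := by
    show ∏ x, d x * (d ((t⁻¹).1 x))⁻¹ = 1
    rw [Finset.prod_mul_distrib, hd1, one_mul, Equiv.prod_comp ((t⁻¹).1) fun x => (d x)⁻¹, Finset.prod_inv_distrib, hd1,
      inv_one]
  have hcom : ⁅dg (q := q) hpq d hd hd1, pm h2 hS t⁆ = dg hpq e he he1 := by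
    rw [commutatorElement_def, mul_inv_eq_iff_eq_mul, mul_inv_eq_iff_eq_mul]
    apply mat_injective
    rw [mat_mul, mat_mul, mat_mul, mat_dg, mat_dg, mat_pm, mm_mul, mm_mul, mm_mul]
    congr 1
    funext j
    show d (t.1 j) * 1 = (e _ * 1) * d j
    have h3 : (t⁻¹).1 (t.1 j) = j := t.1.symm_apply_apply j
    show d (t.1 j) * 1 = (d (t.1 j) * (d ((t⁻¹).1 (t.1 j)))⁻¹ * 1) * d j
    rw [h3, mul_one, mul_one, inv_mul_cancel_right₀ (ne_zero_of_pow (hd j))]
  have hX : IsPGroup p ((XS p n F q S).map (pr n F q)) := (isPGroup_XS hS).map _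
  refine Cfsg.Agent.H681.IP.row_of_derived_mem hp.out _ hX (x := pr n F q (pm h2 hS s)) (y := pr n F q (pm h2 hS t))
    (z := pr n F q (dg hpq d hd hd1)) (t := pr n F q (pm h2 hS t)) ⟨_, pm_mem h2 hS s, rfl⟩ ⟨_, pm_mem h2 hS t, rfl⟩
    ⟨_, dg_mem hpq hd hd1 S, rfl⟩ ⟨_, pm_mem h2 hS t, rfl⟩ ?_
  rw [← map_commutatorElement, ← map_commutatorElement, ← map_commutatorElement, hcom]
  intro h
  refine not_comm hF hn0 hpq he he1 h2 hS (σ := ⁅s, t⁆) (j₀ := la) (j₁ := ι (0, 0)) (hfix _) ?_ h.symm.eq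
  rw [hst]
  show d (ι (0, 0)) * (d ((t⁻¹).1 (ι (0, 0))))⁻¹ ≠ d (ι (0, 1)) * (d ((t⁻¹).1 (ι (0, 1))))⁻¹
  rw [htinv, htinv]
  show dd c _ _ _ * (dd c _ _ _)⁻¹ ≠ dd c _ _ _ * (dd c _ _ _)⁻¹
  have n1 : ∀ j : ZMod p, ι ((0 : ZMod p) - 1, j) ≠ ι (0, 0) := by
    intro j h3
    have h4 : (0 : ZMod p) - 1 = 0 := congrArg Prod.fst (ι.injective h3)
    rw [zero_sub] at h4
    exact hm1 h4
  rw [dd_left (hne _), dd_of_ne (n1 _) (hne _), dd_of_ne (n1 _) (hne _), dd_of_ne _ (hne _)]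
  · rw [inv_one, mul_one, mul_one]
    exact hc1
  · intro h3
    exact one_ne_zero (congrArg Prod.snd (ι.injective h3))

end fin

end Cfsg.Agent.H436.HT
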